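import Cfsg.Agent.Classical.SympFormStd
import Cfsg.Agent.Classical.Symp.Form
import Cfsg.Agent.Classical.Unitary.Order
import Cfsg.Prelude.Def_LieClassical

/-!
Quadratic subfields of matrix algebras skew for the standard alternating form: generators, standard position,
and the unitary group inside the centraliser.
-/

set_option autoImplicit false
set_option maxHeartbeats 800000

namespace CfsgLib.Classical.PrimeDerangement.UnitarySp

open Matrix Polynomial

variable {F : Type*} [Field F] {d : ℕ}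

local notation "κ" => (Fin d ⊕ Fin d)

/-- The standard square root of `μ`. -/
def stdJ (d : ℕ) (μ : F) : Matrix (Fin d ⊕ Fin d) (Fin d ⊕ Fin d) F :=
  Matrix.fromBlocks 0 (μ • (1 : Matrix (Fin d) (Fin d) F)) 1 0

theorem stdJ_mulVec (μ : F) (u : κ → F) :
    stdJ d μ *ᵥ u = Sum.elim (fun a => μ * u (Sum.inr a)) (fun a => u (Sum.inl a)) := by
  funext k
  rcases k with k | k <;> simp [stdJ, Matrix.fromBlocks_mulVec, Matrix.smul_mulVec]

theorem stdJ_sq (μ : F) : stdJ d μ * stdJ d μ = μ • 1 := by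
  simp [stdJ, Matrix.fromBlocks_multiply, ← Matrix.fromBlocks_one, Matrix.fromBlocks_smul]

/-- A generator of a quadratic field of matrices which is closed under adjoints and not self-adjoint. -/
theorem exists_skew_generator (h2 : (2 : F) ≠ 0) (hd : 0 < d) {K : Subalgebra F (Matrix κ κ F)}
    (hK : Cfsg.Geo.IsFieldSubalgebra 2 K) (hKf : Cfsg.Geo.IsAdjointClosedFor (Cfsg.sympForm d F) K)
    (hKns : ¬ Cfsg.Geo.IsSelfAdjointFor (Cfsg.sympForm d F) K) :
    ∃ (j : Matrix κ κ F) (μ : F), j ∈ K ∧ (∀ c : F, c * c ≠ μ) ∧ j * j = μ • 1 ∧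
      (∀ k ∈ K, ∃ s t : F, k = s • (1 : Matrix κ κ F) + t • j) ∧
      ∀ u v, Cfsg.sympForm d F (j *ᵥ u) v = -Cfsg.sympForm d F u (j *ᵥ v) := by
  classical
  have hne : (1 : Matrix κ κ F) ≠ 0 := by
    intro h
    have := congrFun (congrFun h (Sum.inl ⟨0, hd⟩)) (Sum.inl ⟨0, hd⟩)
    simp at this
  obtain ⟨J, hJK, hJns⟩ : ∃ J ∈ K, ∀ t : F, J ≠ t • (1 : Matrix κ κ F) := by
    by_contra h
    push Not at h
    have hle : (Subalgebra.toSubmodule K) ≤ Submodule.span F {(1 : Matrix κ κ F)} := fun k hk => by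
      obtain ⟨t, rfl⟩ := h k hk
      exact Submodule.smul_mem _ t (Submodule.mem_span_singleton_self 1)
    have h1 := Submodule.finrank_mono hle
    rw [finrank_span_singleton hne, show Module.finrank F (Subalgebra.toSubmodule K) = 2 from hK.finrank_eq] at h1
    omega
  have hli : LinearIndependent F ![(⟨1, K.one_mem⟩ : K), ⟨J, hJK⟩] := by
    refine LinearIndependent.pair_iff.2 fun r t h => ?_
    have h' : r • (1 : Matrix κ κ F) + t • J = 0 := congrArg Subtype.val h
    by_cases ht : t = 0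
    · rw [ht, zero_smul, add_zero, smul_eq_zero] at h'
      exact ⟨h'.resolve_right hne, ht⟩
    · refine absurd ?_ (hJns (-(t⁻¹ * r)))
      rw [neg_smul, ← smul_smul, eq_neg_of_add_eq_zero_left h', smul_neg, neg_neg, inv_smul_smul₀ ht]
  have hgen0 : ∀ k ∈ K, ∃ r t : F, k = r • (1 : Matrix κ κ F) + t • J := by
    intro k hk
    have hspan := hli.span_eq_top_of_card_eq_finrank (by simp [hK.finrank_eq])
    obtain ⟨c, hc⟩ := (Submodule.mem_span_range_iff_exists_fun F).1
      (hspan ▸ Submodule.mem_top : (⟨k, hk⟩ : K) ∈ Submodule.span F (Set.range ![(⟨1, K.one_mem⟩ : K), ⟨J, hJK⟩]))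
    refine ⟨c 0, c 1, ?_⟩
    have := congrArg Subtype.val hc
    simpa [Fin.sum_univ_two] using this.symm
  obtain ⟨β, α, hsq⟩ := hgen0 (J * J) (K.mul_mem hJK hJK)
  set j := J - (α / 2) • (1 : Matrix κ κ F) with hj
  have hjK : j ∈ K := K.sub_mem hJK (K.smul_mem K.one_mem _)
  have hjj : j * j = (β + α * α / 4) • 1 := by
    rw [hj, sub_mul, mul_sub, mul_sub, hsq, Matrix.mul_smul, Matrix.smul_mul, Matrix.smul_mul, Matrix.mul_smul,
      mul_one, one_mul, mul_one, smul_smul]
    have h4F : (4 : F) ≠ 0 := by rw [show (4 : F) = 2 * 2 by norm_num]; exact mul_ne_zero h2 h2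
    haveI : NeZero (2 : F) := ⟨h2⟩
    have h4 : α / 2 * (α / 2) = α * α / 4 := by field_simp; ring
    have hα : α • J = (α / 2) • J + (α / 2) • J := by rw [← add_smul, add_halves]
    rw [h4, hα, add_smul]
    abel
  have hjns : ∀ t : F, j ≠ t • (1 : Matrix κ κ F) := fun t h => hJns (t + α / 2) (by
    rw [add_smul, ← h, hj]; abel)
  have hgen : ∀ k ∈ K, ∃ s t : F, k = s • (1 : Matrix κ κ F) + t • j := by
    intro k hk
    obtain ⟨r, t, rfl⟩ := hgen0 k hk
    exact ⟨r + t * (α / 2), t, by rw [hj, smul_sub, smul_smul, add_smul]; abel⟩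
  set μ := β + α * α / 4 with hμ
  clear_value j μ
  have hμns : ∀ c : F, c * c ≠ μ := by
    intro c hc
    obtain ⟨y, hy, hyy⟩ := hK.inv (j - c • 1) (K.sub_mem hjK (K.smul_mem K.one_mem c))
      (sub_ne_zero.2 (hjns c))
    refine hjns (-c) ?_
    have h0 : (j + c • 1) * (j - c • 1) = 0 := by
      rw [add_mul, mul_sub, mul_sub, hjj, Matrix.smul_mul, Matrix.smul_mul, Matrix.mul_smul, one_mul, one_mul, mul_one,
        smul_smul, hc]
      abel
    have h1 : j + c • (1 : Matrix κ κ F) = 0 := by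
      calc j + c • (1 : Matrix κ κ F) = (j + c • 1) * ((j - c • 1) * y) := by rw [hyy, mul_one]
        _ = 0 := by rw [← mul_assoc, h0, zero_mul]
    rw [neg_smul]
    exact eq_neg_of_add_eq_zero_left h1
  refine ⟨j, μ, hjK, hμns, hjj, hgen, ?_⟩
  obtain ⟨j', hj'K, hadj⟩ := hKf j hjK
  obtain ⟨s, t, rfl⟩ := hgen j' hj'K
  have hadj' : ∀ u v, Cfsg.sympForm d F (j *ᵥ u) v =
      s * Cfsg.sympForm d F u v + t * Cfsg.sympForm d F u (j *ᵥ v) := fun u v => by
    rw [hadj, Matrix.add_mulVec, Matrix.smul_mulVec, Matrix.smul_mulVec, Matrix.one_mulVec, Symp.form_add_right,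
      Symp.form_smul_right, Symp.form_smul_right]
  -- the adjoint of the adjoint
  have h3 : ∀ u v, Cfsg.sympForm d F u (j *ᵥ v) =
      s * Cfsg.sympForm d F u v + t * Cfsg.sympForm d F (j *ᵥ u) v := fun u v => by
    rw [Symp.form_swap u, hadj', Symp.form_swap v u, Symp.form_swap v (j *ᵥ u)]; ring
  -- the square
  have h4 : ∀ u v, μ * Cfsg.sympForm d F u v = s * (s * Cfsg.sympForm d F u v + t * Cfsg.sympForm d F u (j *ᵥ v)) +
      t * (s * Cfsg.sympForm d F u (j *ᵥ v) + t * (μ * Cfsg.sympForm d F u v)) := fun u v => by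
    calc μ * Cfsg.sympForm d F u v = Cfsg.sympForm d F (j *ᵥ (j *ᵥ u)) v := by
          rw [Matrix.mulVec_mulVec, hjj, Matrix.smul_mulVec, Matrix.one_mulVec, Symp.form_smul_left]
      _ = _ := by
          rw [hadj', hadj', hadj' u (j *ᵥ v), Matrix.mulVec_mulVec, hjj, Matrix.smul_mulVec, Matrix.one_mulVec,
            Symp.form_smul_right]
  set e : κ → F := Symp.stdE ⟨0, hd⟩
  set f : κ → F := Symp.stdF ⟨0, hd⟩
  have hef : Cfsg.sympForm d F e f = 1 := by rw [Symp.form_stdE_stdF, if_pos rfl]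
  have hkey : ∀ A B : F, (∀ u v, A * Cfsg.sympForm d F u v + B * Cfsg.sympForm d F u (j *ᵥ v) = 0) →
      A = 0 ∧ B = 0 := by
    intro A B h
    have hz : A • (1 : Matrix κ κ F) + B • j = 0 := by
      refine Matrix.mulVec_injective (funext fun v => ?_)
      rw [Matrix.zero_mulVec]
      refine Symp.eq_zero_of_form_eq_zero fun u => ?_
      rw [Symp.form_eq_zero_comm, Matrix.add_mulVec, Matrix.smul_mulVec, Matrix.smul_mulVec, Matrix.one_mulVec,
        Symp.form_add_right, Symp.form_smul_right, Symp.form_smul_right]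
      exact h u v
    by_cases hB : B = 0
    · subst hB
      rw [zero_smul, add_zero, smul_eq_zero] at hz
      exact ⟨hz.resolve_right hne, rfl⟩
    · refine absurd ?_ (hjns (-(B⁻¹ * A)))
      rw [neg_smul, ← smul_smul, eq_neg_of_add_eq_zero_left hz, smul_neg, neg_neg, inv_smul_smul₀ hB]
  obtain ⟨e1, e2⟩ := hkey (s * s + t * t * μ - μ) (2 * (s * t)) fun u v => by linear_combination -h4 u v
  rcases mul_eq_zero.1 ((mul_eq_zero.1 e2).resolve_left h2) with hs | ht
  · -- here `t = ±1`
    subst hs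
    have hμ0 : μ ≠ 0 := fun h => hμns 0 (by rw [h, mul_zero])
    have htt : t * t = 1 := mul_right_cancel₀ hμ0 (by linear_combination e1)
    rcases mul_self_eq_one_iff.1 htt with rfl | rfl
    · refine absurd (fun k hk u v => ?_) hKns
      obtain ⟨a, b, rfl⟩ := hgen k hk
      simp only [Matrix.add_mulVec, Matrix.smul_mulVec, Matrix.one_mulVec, Symp.form_add_left, Symp.form_add_right,
        Symp.form_smul_left, Symp.form_smul_right, hadj']
      ring
    · intro u v; rw [hadj']; ring
  · subst ht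
    exact absurd (by linear_combination e1) (hμns s)

/-- Conjugating `j` to itself or its negative normalises the field. -/
theorem mem_normalizer_of_conj {K : Subalgebra F (Matrix κ κ F)} {j : Matrix κ κ F} (hjK : j ∈ K)
    (hgen : ∀ k ∈ K, ∃ s t : F, k = s • (1 : Matrix κ κ F) + t • j) {g : GL κ F} {ε : F} (hε : ε * ε = 1)
    (hg : (g : Matrix κ κ F) * j * ((g⁻¹ : GL κ F) : Matrix κ κ F) = ε • j) :
    g ∈ Cfsg.Geo.subalgebraNormalizer K := by
  have hc : ∀ s t : F, (g : Matrix κ κ F) * (s • (1 : Matrix κ κ F) + t • j) * ((g⁻¹ : GL κ F) : Matrix κ κ F) =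
      s • (1 : Matrix κ κ F) + (t * ε) • j := fun s t => by
    rw [mul_add, add_mul, Matrix.mul_smul, mul_one, Matrix.smul_mul, Units.mul_inv, Matrix.mul_smul, Matrix.smul_mul,
      hg, smul_smul]
  intro k
  constructor
  · intro hk
    obtain ⟨s, t, rfl⟩ := hgen k hk
    rw [hc]
    exact K.add_mem (K.smul_mem K.one_mem _) (K.smul_mem hjK _)
  · intro hk
    obtain ⟨s, t, hst⟩ := hgen _ hk
    have : k = s • (1 : Matrix κ κ F) + (t * ε) • j := by
      calc k = ((g⁻¹ : GL κ F) : Matrix κ κ F) * ((g : Matrix κ κ F) * k * ((g⁻¹ : GL κ F) : Matrix κ κ F)) *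
            (g : Matrix κ κ F) := by simp [← mul_assoc, Units.inv_mul_cancel_right]
        _ = ((g⁻¹ : GL κ F) : Matrix κ κ F) * ((g : Matrix κ κ F) * (s • (1 : Matrix κ κ F) + (t * ε) • j) *
            ((g⁻¹ : GL κ F) : Matrix κ κ F)) * (g : Matrix κ κ F) := by
              rw [hst, hc, mul_assoc t, hε, mul_one]
        _ = _ := by simp [← mul_assoc, Units.inv_mul_cancel_right]
    rw [this]
    exact K.add_mem (K.smul_mem K.one_mem _) (K.smul_mem hjK _)

/-- An element of odd order normalising the field centralises it. -/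
theorem comm_of_mem_normalizer (h2 : (2 : F) ≠ 0) {K : Subalgebra F (Matrix κ κ F)}
    (hK : Cfsg.Geo.IsFieldSubalgebra 2 K) {j : Matrix κ κ F} {μ : F} (hjK : j ∈ K) (hμ : ∀ c : F, c * c ≠ μ)
    (hjj : j * j = μ • 1) {g : GL κ F} (hg : g ∈ Cfsg.Geo.subalgebraNormalizer K) {r : ℕ} (hr : Odd r)
    (hgr : g ^ r = 1) : (g : Matrix κ κ F) * j = j * (g : Matrix κ κ F) := by
  rcases Nat.eq_zero_or_pos d with rfl | hd
  · exact Matrix.ext fun i => isEmptyElim i
  haveI : Nonempty κ := ⟨Sum.inl ⟨0, hd⟩⟩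
  set j' := (g : Matrix κ κ F) * j * ((g⁻¹ : GL κ F) : Matrix κ κ F) with hj'
  have hj'K : j' ∈ K := (hg j).1 hjK
  have hsq : j' * j' = μ • 1 := by
    rw [hj']; simp only [mul_assoc, Units.inv_mul_cancel_left]
    rw [← mul_assoc j, hjj, Matrix.smul_mul, one_mul, Matrix.mul_smul, Units.mul_inv]
  have hcases : j' = j ∨ j' = -j := by
    by_contra hcon
    push Not at hcon
    obtain ⟨y, -, hy⟩ := hK.inv (j' - j) (K.sub_mem hj'K hjK) (sub_ne_zero.2 hcon.1)
    refine hcon.2 (eq_neg_of_add_eq_zero_left ?_)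
    calc j' + j = (j' + j) * ((j' - j) * y) := by rw [hy, mul_one]
      _ = 0 := by
        rw [← mul_assoc, add_mul, mul_sub, mul_sub, hsq, hjj, hK.comm j hjK j' hj'K]
        simp
  rcases hcases with h | h
  · calc (g : Matrix κ κ F) * j = j' * (g : Matrix κ κ F) := by
          rw [hj', mul_assoc, Units.inv_mul, mul_one]
      _ = _ := by rw [h]
  · exfalso
    have hk : ∀ k : ℕ, ((g ^ k : GL κ F) : Matrix κ κ F) * j = ((-1 : F) ^ k) • (j * ((g ^ k : GL κ F) : Matrix κ κ F)) := by
      intro k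
      induction k with
      | zero => simp
      | succ k ih =>
        have hgj : (g : Matrix κ κ F) * j = -(j * (g : Matrix κ κ F)) := by
          calc (g : Matrix κ κ F) * j = j' * (g : Matrix κ κ F) := by rw [hj', mul_assoc, Units.inv_mul, mul_one]
            _ = _ := by rw [h, neg_mul]
        rw [pow_succ g, Units.val_mul, mul_assoc, hgj, mul_neg, ← mul_assoc, ih, Matrix.smul_mul, mul_assoc, pow_succ,
          mul_neg_one, neg_smul]
    have := hk r
    rw [hgr, Units.val_one, one_mul, mul_one, hr.neg_one_pow, neg_one_smul] at this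
    have h0 : (2 : F) • j = 0 := by rw [two_smul]; nth_rw 2 [this]; rw [add_neg_cancel]
    have hj0 : j = 0 := (smul_eq_zero.1 h0).resolve_left h2
    rw [hj0, mul_zero] at hjj
    rcases smul_eq_zero.1 hjj.symm with h' | h'
    · exact hμ 0 (by rw [h', mul_zero])
    · exact g.ne_zero (by rw [← mul_one (g : Matrix κ κ F), h', mul_zero])

/-- Standard position. -/
theorem exists_frame [Finite F] (h2 : (2 : F) ≠ 0) {j : Matrix κ κ F} {μ : F} (hμ : ∀ c : F, c * c ≠ μ)
    (hjj : j * j = μ • 1) (hskew : ∀ u v, Cfsg.sympForm d F (j *ᵥ u) v = -Cfsg.sympForm d F u (j *ᵥ v)) :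
    ∃ g ∈ Cfsg.spGL d F, j * (g : Matrix κ κ F) = (g : Matrix κ κ F) * stdJ d μ := by
  classical
  haveI : Fintype F := Fintype.ofFinite F
  have hj2 : ∀ v, j *ᵥ (j *ᵥ v) = μ • v := fun v => by
    rw [Matrix.mulVec_mulVec, hjj, Matrix.smul_mulVec, Matrix.one_mulVec]
  have hskew2 : ∀ u v, Cfsg.sympForm d F v (j *ᵥ u) = Cfsg.sympForm d F u (j *ᵥ v) := fun u v => by
    rw [Symp.form_swap v, hskew, neg_neg]
  have step : ∀ k ≤ d, ∃ v : Fin k → κ → F,
      (∀ a b, Cfsg.sympForm d F (v a) (v b) = 0) ∧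
      ∀ a b, Cfsg.sympForm d F (v a) (j *ᵥ v b) = if a = b then -1 else 0 := by
    intro k
    induction k with
    | zero => exact fun _ => ⟨Fin.elim0, fun a => a.elim0, fun a => a.elim0⟩
    | succ k ih =>
      intro hk
      obtain ⟨v, hv0, hv1⟩ := ih (by omega)
      let Φ : (κ → F) →ₗ[F] (Fin k → F) × (Fin k → F) :=
        { toFun := fun w => (fun a => Cfsg.sympForm d F w (v a), fun a => Cfsg.sympForm d F w (j *ᵥ v a))
          map_add' := fun x y => by simp [Symp.form_add_left, funext_iff, Prod.ext_iff]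
          map_smul' := fun c x => by simp [Symp.form_smul_left, funext_iff, Prod.ext_iff] }
      have hmem : ∀ w, w ∈ LinearMap.ker Φ ↔
          (∀ a, Cfsg.sympForm d F w (v a) = 0) ∧ ∀ a, Cfsg.sympForm d F w (j *ᵥ v a) = 0 := fun w => by
        simp [Φ, funext_iff, Prod.ext_iff]
      obtain ⟨u, hu, hu0⟩ : ∃ u ∈ LinearMap.ker Φ, Cfsg.sympForm d F u (j *ᵥ u) ≠ 0 := by
        by_contra hc
        push Not at hc
        have hker : LinearMap.ker Φ ≠ ⊥ := by
          intro hb
          have h1 := LinearMap.finrank_le_finrank_of_injective (f := Φ) (LinearMap.ker_eq_bot.1 hb)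
          simp [Module.finrank_prod] at h1
          omega
        obtain ⟨w, hw, hw0⟩ := Submodule.exists_mem_ne_zero_of_ne_bot hker
        -- the projection to the orthogonal of the family
        refine hw0 (Symp.eq_zero_of_form_eq_zero fun z => ?_)
        have hjw : j *ᵥ w ∈ LinearMap.ker Φ := by
          rw [hmem] at hw ⊢
          refine ⟨fun a => by rw [hskew, hw.2 a, neg_zero], fun a => ?_⟩
          rw [hskew, hj2, Symp.form_smul_right, hw.1 a, mul_zero, neg_zero]
        set π := z + ∑ b, (Cfsg.sympForm d F z (j *ᵥ v b) • v b - Cfsg.sympForm d F z (v b) • (j *ᵥ v b)) with hπ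
        have hπk : π ∈ LinearMap.ker Φ := by
          rw [hmem]
          have hsum : ∀ (f : Fin k → κ → F) (y : κ → F),
              Cfsg.sympForm d F (∑ b, f b) y = ∑ b, Cfsg.sympForm d F (f b) y := by
            intro f y
            simp only [Cfsg.sympForm, sum_dotProduct]
          have hjv : ∀ a b, Cfsg.sympForm d F (j *ᵥ v b) (v a) = if b = a then 1 else 0 := fun a b => by
            rw [hskew, hv1]; by_cases h : b = a <;> simp [h]
          have hjj' : ∀ a b, Cfsg.sympForm d F (j *ᵥ v b) (j *ᵥ v a) = 0 := fun a b => by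
            rw [hskew, hj2, Symp.form_smul_right, hv0, mul_zero, neg_zero]
          constructor <;> intro a <;>
            simp [hπ, Symp.form_add_left, hsum, Symp.form_sub_left, Symp.form_smul_left, hv0, hv1, hjv, hjj',
              Finset.sum_ite_eq', Finset.sum_sub_distrib]
        have e : Cfsg.sympForm d F w π = Cfsg.sympForm d F w z := by
          obtain ⟨o1, o2⟩ := (hmem w).1 hw
          have hsumr : ∀ (f : Fin k → κ → F),
              Cfsg.sympForm d F w (∑ b, f b) = ∑ b, Cfsg.sympForm d F w (f b) := fun f => by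
            simp only [Cfsg.sympForm, Matrix.mulVec_sum, dotProduct_sum]
          rw [hπ, Symp.form_add_right, hsumr, add_eq_left]
          refine Finset.sum_eq_zero fun b _ => ?_
          rw [Symp.form_sub_right, Symp.form_smul_right, Symp.form_smul_right, o1, o2, mul_zero, mul_zero, sub_zero]
        rw [← e]
        -- the symmetric form vanishes on the orthogonal
        have hzero : ∀ x ∈ LinearMap.ker Φ, ∀ y ∈ LinearMap.ker Φ, Cfsg.sympForm d F x (j *ᵥ y) = 0 := by
          intro x hx y hy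
          have h := hc (x + y) (Submodule.add_mem _ hx hy)
          rw [Matrix.mulVec_add, Symp.form_add_left, Symp.form_add_right, Symp.form_add_right, hc x hx, hc y hy,
            hskew2 x y] at h
          exact (mul_eq_zero.1 (show (2 : F) * Cfsg.sympForm d F x (j *ᵥ y) = 0 by linear_combination h)).resolve_left h2
        have h := hzero π hπk _ hjw
        rw [hj2, Symp.form_smul_right] at h
        rw [Symp.form_swap, (mul_eq_zero.1 h).resolve_left fun h' => hμ 0 (by rw [h', mul_zero]), neg_zero]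
      obtain ⟨s, t, hst⟩ : ∃ s t : F, s * s - μ * (t * t) = -(Cfsg.sympForm d F u (j *ᵥ u))⁻¹ := by
        have hodd : Fintype.card F % 2 = 1 := FiniteField.odd_card_of_char_ne_two fun h => h2 (by
          haveI := ringChar.charP F
          exact_mod_cast (CharP.cast_eq_zero_iff F (ringChar F) 2).2 (h ▸ dvd_rfl))
        have hμ0 : μ ≠ 0 := fun h => hμ 0 (by rw [h, mul_zero])
        obtain ⟨x, y, hxy⟩ := FiniteField.exists_root_sum_quadratic (f := (Polynomial.X ^ 2 : Polynomial F))
          (g := -Polynomial.C μ * Polynomial.X ^ 2 - Polynomial.C (-(Cfsg.sympForm d F u (j *ᵥ u))⁻¹))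
          (Polynomial.degree_X_pow 2) (by compute_degree!) hodd
        simp only [Polynomial.eval_pow, Polynomial.eval_X, Polynomial.eval_sub, Polynomial.eval_C, Polynomial.eval_mul,
          Polynomial.eval_neg] at hxy
        exact ⟨x, y, by linear_combination hxy⟩
      set u' := s • u + t • (j *ᵥ u) with hu'
      have hu'k : u' ∈ LinearMap.ker Φ := by
        rw [hmem] at hu ⊢
        constructor <;> intro a
        · rw [hu', Symp.form_add_left, Symp.form_smul_left, Symp.form_smul_left, hskew, hu.1 a, hu.2 a]; ring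
        · rw [hu', Symp.form_add_left, Symp.form_smul_left, Symp.form_smul_left, hskew, hj2, Symp.form_smul_right,
            hu.1 a, hu.2 a]; ring
      have hu'1 : Cfsg.sympForm d F u' (j *ᵥ u') = -1 := by
        rw [hu', Matrix.mulVec_add, Matrix.mulVec_smul, Matrix.mulVec_smul, hj2]
        simp only [Symp.form_add_left, Symp.form_add_right, Symp.form_smul_left, Symp.form_smul_right, Symp.form_self,
          hskew u (j *ᵥ u), hskew u u, hj2]
        linear_combination Cfsg.sympForm d F u (j *ᵥ u) * hst - mul_inv_cancel₀ hu0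
      obtain ⟨p1, p2⟩ := (hmem u').1 hu'k
      refine ⟨Fin.cons u' v, fun a b => ?_, fun a b => ?_⟩
      · refine Fin.cases ?_ (fun a => ?_) a <;> refine Fin.cases ?_ (fun b => ?_) b
        · exact Symp.form_self _
        · exact p1 b
        · simp only [Fin.cons_succ, Fin.cons_zero]; rw [Symp.form_swap, p1, neg_zero]
        · exact hv0 a b
      · refine Fin.cases ?_ (fun a => ?_) a <;> refine Fin.cases ?_ (fun b => ?_) b
        · simpa using hu'1
        · simp only [Fin.cons_succ, Fin.cons_zero]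
          rw [p2 b, if_neg (Fin.succ_ne_zero b).symm]
        · simp only [Fin.cons_succ, Fin.cons_zero]
          rw [hskew2, p2, if_neg (Fin.succ_ne_zero a)]
        · simpa using hv1 a b
  obtain ⟨v, hv0, hv1⟩ := step d le_rfl
  let M : Matrix κ κ F := Matrix.of fun i k => Sum.elim (fun a => v a i) (fun a => (j *ᵥ v a) i) k
  have hcolF : ∀ a, M *ᵥ Pi.single (Sum.inl a) 1 = v a := fun a => funext fun i => by simp [M]
  have hcolE : ∀ a, M *ᵥ Pi.single (Sum.inr a) 1 = j *ᵥ v a := fun a => funext fun i => by simp [M]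
  have hM : Mᵀ * Matrix.J (Fin d) F * M = Matrix.J (Fin d) F := by
    have key : ∀ x y : κ → F, x ⬝ᵥ (Mᵀ * Matrix.J (Fin d) F * M) *ᵥ y = Cfsg.sympForm d F (M *ᵥ x) (M *ᵥ y) := by
      intro x y
      rw [← Matrix.mulVec_mulVec, ← Matrix.mulVec_mulVec, dotProduct_transpose_mulVec, dotProduct_comm]
      rfl
    ext k l
    have h := key (Pi.single k 1) (Pi.single l 1)
    simp only [single_dotProduct, one_mul, Matrix.mulVec_single_one, Matrix.col_apply] at h
    rw [h]
    have hc : ∀ k : κ, (fun i => M i k) = Sum.elim v (fun a => j *ᵥ v a) k := by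
      rintro (k | k) <;> rfl
    have hcc : ∀ k : κ, M.col k = Sum.elim v (fun a => j *ᵥ v a) k := hc
    rw [hcc, hcc]
    rcases k with k | k <;> rcases l with l | l <;>
      by_cases hkl : k = l <;>
      simp [Matrix.J, hv0, hv1, hskew, hj2, Symp.form_smul_right, Matrix.one_apply, eq_comm, hkl]
  obtain ⟨g, hg⟩ : IsUnit M := by
    rw [Matrix.isUnit_iff_isUnit_det]
    have h := congrArg Matrix.det hM
    rw [Matrix.det_mul, Matrix.det_mul, Matrix.det_transpose] at h
    refine isUnit_iff_ne_zero.2 fun h0 => ?_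
    rw [h0, zero_mul, zero_mul] at h
    exact (Matrix.isUnit_det_J (Fin d) F).ne_zero h.symm
  refine ⟨g, SympFormStd.mem_spGL.2 ((Symp.mem_symplecticGroup_iff_form _).1
    (SymplecticGroup.mem_iff'.2 (hg ▸ hM))), ?_⟩
  rw [hg]
  refine Matrix.ext_of_mulVec_single fun k => ?_
  rw [← Matrix.mulVec_mulVec, ← Matrix.mulVec_mulVec]
  rcases k with a | a
  · rw [hcolF, stdJ_mulVec, show Sum.elim (fun b => μ * (Pi.single (Sum.inl a) 1 : κ → F) (Sum.inr b))
      (fun b => (Pi.single (Sum.inl a) 1 : κ → F) (Sum.inl b)) = Pi.single (Sum.inr a) 1 from by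
        funext k; rcases k with k | k <;> simp [Pi.single_apply], hcolE]
  · rw [hcolE, hj2, stdJ_mulVec, show Sum.elim (fun b => μ * (Pi.single (Sum.inr a) 1 : κ → F) (Sum.inr b))
      (fun b => (Pi.single (Sum.inr a) 1 : κ → F) (Sum.inl b)) = μ • (Pi.single (Sum.inl a) 1 : κ → F) from by
        funext k; rcases k with k | k <;> simp [Pi.single_apply], Matrix.mulVec_smul, hcolF]

/-- The centraliser of the standard root in the symplectic group. -/
def stdCent (d : ℕ) (μ : F) : Subgroup (GL (Fin d ⊕ Fin d) F) where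
  carrier := {g | g ∈ Cfsg.spGL d F ∧ (g : Matrix _ _ F) * stdJ d μ = stdJ d μ * (g : Matrix _ _ F)}
  one_mem' := ⟨one_mem _, by simp⟩
  mul_mem' := fun {a b} ha hb => ⟨mul_mem ha.1 hb.1, by
    rw [Units.val_mul, mul_assoc, hb.2, ← mul_assoc, ha.2, mul_assoc]⟩
  inv_mem' := fun {a} ha => ⟨inv_mem ha.1, by
    calc ((a⁻¹ : GL (Fin d ⊕ Fin d) F) : Matrix _ _ F) * stdJ d μ
        = ((a⁻¹ : GL (Fin d ⊕ Fin d) F) : Matrix _ _ F) * (stdJ d μ * (a : Matrix _ _ F)) *
            ((a⁻¹ : GL (Fin d ⊕ Fin d) F) : Matrix _ _ F) := by simp [mul_assoc]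
      _ = _ := by rw [← ha.2, ← mul_assoc, Units.inv_mul, one_mul]⟩

theorem mem_stdCent {μ : F} {g : GL κ F} : g ∈ stdCent d μ ↔
    g ∈ Cfsg.spGL d F ∧ (g : Matrix κ κ F) * stdJ d μ = stdJ d μ * (g : Matrix κ κ F) := Iff.rfl

end CfsgLib.Classical.PrimeDerangement.UnitarySp
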